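import Mathlib

/-! Certificates for the stabiliser of a trio. -/

set_option autoImplicit false

namespace Cfsg.Agent.TwoGroups.TrioStructure

/-- The sextets refining the trio, labelled by nonzero vectors. -/
def labels : List (List ℕ) := [[],
  [29, 5250, 346112, 663616, 5275680, 10486528],
  [142, 5137, 90176, 919552, 2130464, 13631744],
  [147, 5132, 272448, 737280, 7340544, 8421664],
  [1031, 4248, 458816, 550912, 6291744, 9470464],
  [1050, 4229, 149568, 860160, 3178752, 12583456],
  [1161, 4118, 417792, 591936, 4227840, 11534368],
  [1172, 4107, 206848, 802880, 1049376, 14712832]]

/-- Lifts of the transvections. -/
def liftTrans : List (ℕ × ℕ × ℕ) := [(0, 1, 899228811950044672208924825199281162),
  (0, 2, 635677908973668580308897412918808899),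
  (1, 0, 220334409319851932505633067980885228),
  (1, 2, 359148969763162876129949116159592484),
  (2, 0, 860206921671148994475769814911942978),
  (2, 1, 858949175802575409440774196459307330)]

/-- Lifts of two transpositions. -/
def liftSwaps : List ℕ := [380679753959346567265822077975120432, 268195240863863518824749947569574275]

/-- The elements acting trivially. -/
def trivialCodes : List ℕ := [984818244535754528103549039458486304,
  984818205923863427753765695672851564,
  944319343159889714933768938693106796,
  892717090176436960775298536527892867,
  944319218015519380015432746354737474,
  380679813245078647833929983948064800,
  944318823064290954642400041923651585,
  984818031572596889467972307742238721,
  220213109803259289183002082616117280,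
  984818156716967240535091104427609316,
  220213234947629620631314865134579847,
  651239579074641248992907580101724192,
  944319304547998642267612847938832416,
  841384846770303916728016152081695818,
  841384528646309054241536335100872736,
  892716570080838209712931004353710112,
  651239792037798866857882624233711617,
  984818003952259543794068182631842114,
  984817926411759647147806875770389578,
  358662230552642823612470209458277604,
  358661710457044056393439495129792834,
  892717051564545876567542122784630785,
  944319102576394738703745572842844295,
  380679928684203269541447395404979308,
  358661989969147834695807071273619843,
  220213196335738539885701283403923778,
  841384808158412837151086192602713316,
  944319130196732087839792529965846915,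
  651239271942200099653488162017156204,
  944319255341102434276084872386937930,
  358661912428647940353137008170802284,
  220213021984472001614544147585240292,
  892716965032066621240772142037173322,
  651239666893428531954182684007271652,
  892716849592941992622480861855550692,
  984818119391384173581043085065138311,
  358662017589485186128689151159382151,
  892716877213279331368723169406917740,
  358662142733855540651195105552730144,
  651239473913803999747332027293237570,
  892716772052442090202605107574812807,
  892717002357649682421205713980358978,
  380679966009786328418289723589529987,
  841384758951516626855967179451440236,
  841384721625933570291723809660604803,
  651239551454303889473811888243704906,
  984817724440155751670153212646658435,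
  358662105408272472545351412772907009,
  380679735704578744262258556249974785,
  380679840865415988883763329098810442,
  220212994364134639791857418127842412,
  841384606186808937042606075214702593,
  220212916823634747761786313418740099,
  358662191940751730173460734397350986,
  944319025035894854750880159311662308,
  380680053828573620593929939978420546,
  220212714852030859185898598225380426,
  380679533732974860317197295320894692,
  841384633807146291937630987113070914,
  841384326674705150677669060004884615,
  380680015216682528323604087169167495,
  651239753425907778049699603437064579,
  220213147128842336518244087811680257,
  651239704219011580441220362620186759]

end Cfsg.Agent.TwoGroups.TrioStructure
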