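import Mathlib
import Cfsg.Agent.M24Orbits.TriosAt
import Cfsg.Agent.TwoGroups.TrioStructure.Data

/-!
# The structure of a trio stabiliser
-/

set_option autoImplicit false
set_option maxRecDepth 20000

open Cfsg Cfsg.Agent.Golay Cfsg.Agent.M24Orbits
open scoped Pointwise

namespace Cfsg.Agent.TwoGroups.TrioStructure

/-- The label space. -/
abbrev V3 : Type := Fin 3 → ZMod 2

/-- The number of a vector. -/
def num (v : V3) : ℕ := (v 0).val + 2 * (v 1).val + 4 * (v 2).val

/-- The list of masks of the sextet with a given label. -/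
def labList (v : V3) : List ℕ := labels.getD (num v) []

/-- The sextet with a given label, the empty family for zero. -/
def lab (v : V3) : Fam := toSet (labList v)

/-- The standard trio. -/
def T₀ : Fam := toSet rootTri

/-- The transvections as functions of the label. -/
def transv (i j : ℕ) (v : V3) : V3 := fun k => if k.val = i then v k + v (Fin.ofNat 3 j) else v k

/-- The check for a lift of a transvection. -/
def transB : ℕ × ℕ × ℕ → Bool
  | (i, j, c) => isAut c && (rootTri.all fun m => mapMask c m == m) &&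
      decide (∀ v : V3, actL c (labList v) = labList (transv i j v))

/-- The check for a lift of a permutation of the trio. -/
def swapB (σ : Equiv.Perm (Fin 3)) (c : ℕ) : Bool :=
  isAut c && decide (∀ k : Fin 3, mapMask c (rootTri.getD k 0) = rootTri.getD (σ k).val 0) &&
    decide (∀ v : V3, actL c (labList v) = labList v)

theorem lift_checks :
    liftTrans.all transB = true ∧
    (∀ i j : Fin 3, i ≠ j → ∃ e ∈ liftTrans, e.1 = i.val ∧ e.2.1 = j.val) ∧
    swapB (Equiv.swap 0 1) (liftSwaps.getD 0 0) = true ∧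
    swapB (Equiv.swap 1 2) (liftSwaps.getD 1 0) = true ∧
    trivialCodes.all (fun c => swapB 1 c && isComp idCode c c && decide (c < 2 ^ 120)) = true ∧
    trivialCodes.Nodup ∧ trivialCodes.length = 64 := by
  decide +kernel

theorem trio_checks :
    trioB rootTri = true ∧ (∀ v w : V3, (labList v).all (fun m => (labList w).contains m) = true →
      (labList w).all (fun m => (labList v).contains m) = true → v = w) ∧
    (∀ v : V3, (labList v).all (fun m => decide (m < 2 ^ 24)) = true) ∧
    (∀ k : Fin 3, rootTri.getD k 0 < 2 ^ 24) ∧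
    (∀ k l : Fin 3, rootTri.getD k 0 = rootTri.getD l 0 → k = l) := by
  decide +kernel

theorem T₀_mem : T₀ ∈ trios := trio_of_list trio_checks.1

theorem bset_inj {a b : ℕ} (ha : a < 2 ^ 24) (hb : b < 2 ^ 24) (h : bset a = bset b) : a = b := by
  rw [← mask_bset ha, ← mask_bset hb, h]

theorem lab_injective : Function.Injective lab := by
  intro v w h
  suffices hs : ∀ v w, lab v = lab w → (labList v).all (fun m => (labList w).contains m) = true from
    trio_checks.2.1 v w (hs v w h) (hs w v h.symm)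
  intro v w h
  refine List.all_eq_true.2 fun m hm => ?_
  obtain ⟨n, hn, e⟩ := mem_toSet.1 (h ▸ mem_toSet.2 ⟨m, hm, rfl⟩ : bset m ∈ lab w)
  have hm' := of_decide_eq_true (List.all_eq_true.1 (trio_checks.2.2.1 v) m hm)
  have hn' := of_decide_eq_true (List.all_eq_true.1 (trio_checks.2.2.1 w) n hn)
  rw [List.contains_iff_mem, ← bset_inj hn' hm' e]
  exact hn

/-- The stabiliser. -/
abbrev St : Subgroup ↥M24 := MulAction.stabilizer ↥M24 T₀

theorem st_smul (g : St) : ((g : ↥M24) : Equiv.Perm GolayPt) • T₀ = T₀ := g.2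

theorem card_St : Nat.card St = 64512 := by
  have horb : MulAction.orbit ↥M24 T₀ = trios := by
    refine Set.ext fun U => ⟨?_, fun hU => ?_⟩
    · rintro ⟨g, rfl⟩
      exact smul_mem_trios g.2 T₀_mem
    · obtain ⟨g, hg, e⟩ := trio_of_root hU
      exact ⟨⟨g, hg⟩, e⟩
  have h := St.index_mul_card
  rw [show St.index = 3795 by
    rw [MulAction.index_stabilizer, horb, trios_ncard], M24_card] at h
  omega

/-- A matrix describes the action on the labels. -/
def Good (g : St) (M : GL (Fin 3) (ZMod 2)) : Prop :=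
  ∀ v : V3, ((g : ↥M24) : Equiv.Perm GolayPt) • lab v =
    lab ((M : Matrix (Fin 3) (Fin 3) (ZMod 2)).mulVec v)

theorem good_unique {g : St} {M M' : GL (Fin 3) (ZMod 2)} (h : Good g M) (h' : Good g M') : M = M' :=
  Units.ext (Matrix.ext_of_mulVec_single fun i => lab_injective ((h _).symm.trans (h' _)))

theorem good_one : Good 1 1 := fun v => by simp

theorem good_mul {g g' : St} {M M' : GL (Fin 3) (ZMod 2)} (h : Good g M) (h' : Good g' M') :
    Good (g * g') (M * M') := fun v => by
  rw [Subgroup.coe_mul, Subgroup.coe_mul, mul_smul, h' v, h, Units.val_mul, Matrix.mulVec_mulVec]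

theorem good_inv {g : St} {M : GL (Fin 3) (ZMod 2)} (h : Good g M) : Good g⁻¹ M⁻¹ := fun v => by
  rw [Subgroup.coe_inv, Subgroup.coe_inv, inv_smul_eq_iff, h, Matrix.mulVec_mulVec, ← Units.val_mul,
    mul_inv_cancel, Units.val_one, Matrix.one_mulVec]

/-- The elements acting linearly on the labels. -/
def linearPart : Subgroup St where
  carrier := {g | ∃ M, Good g M}
  one_mem' := ⟨1, good_one⟩
  mul_mem' := fun ⟨M, h⟩ ⟨M', h'⟩ => ⟨M * M', good_mul h h'⟩
  inv_mem' := fun ⟨M, h⟩ => ⟨M⁻¹, good_inv h⟩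

/-- The action on the trio. -/
def onTrio : St →* Equiv.Perm ↥T₀ where
  toFun g := (MulAction.toPerm ((g : ↥M24) : Equiv.Perm GolayPt)).subtypePerm fun o => by
    conv_lhs => rw [← st_smul g]
    exact Finset.smul_mem_smul_finset_iff _
  map_one' := Equiv.ext fun o => Subtype.ext (one_smul _ (o : Finset GolayPt))
  map_mul' a b := Equiv.ext fun o => Subtype.ext
    (mul_smul ((a : ↥M24) : Equiv.Perm GolayPt) ((b : ↥M24) : Equiv.Perm GolayPt) (o : Finset GolayPt))

theorem onTrio_apply (g : St) (o : ↥T₀) :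
    ((onTrio g o : ↥T₀) : Finset GolayPt) =
      ((g : ↥M24) : Equiv.Perm GolayPt) • (o : Finset GolayPt) := rfl

/-- The pair of actions. -/
noncomputable def pairHom : linearPart →* GL (Fin 3) (ZMod 2) × Equiv.Perm ↥T₀ where
  toFun g := (g.2.choose, onTrio g)
  map_one' := Prod.ext (good_unique (1 : linearPart).2.choose_spec good_one) (map_one onTrio)
  map_mul' a b := Prod.ext (good_unique (a * b).2.choose_spec (good_mul a.2.choose_spec b.2.choose_spec))
    (map_mul onTrio (a : St) b)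

theorem pairHom_eq {g : St} {M : GL (Fin 3) (ZMod 2)} (h : Good g M) :
    pairHom ⟨g, M, h⟩ = (M, onTrio g) :=
  Prod.ext (good_unique (Exists.choose_spec (⟨M, h⟩ : ∃ M, Good g M)) h) rfl

/-- The three octads, numbered. -/
def octAt (k : Fin 3) : ↥T₀ := ⟨bset (rootTri.getD k 0), mem_toSet.2 ⟨_, by
  fin_cases k <;> simp [rootTri], rfl⟩⟩

theorem octAt_bijective : Function.Bijective octAt := by
  rw [Fintype.bijective_iff_injective_and_card]
  refine ⟨fun k l e => ?_, ?_⟩
  · exact trio_checks.2.2.2.2 k l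
      (bset_inj (trio_checks.2.2.2.1 k) (trio_checks.2.2.2.1 l) (congrArg Subtype.val e))
  · rw [Fintype.card_fin, Fintype.card_coe, T₀_mem.1]

/-- Numbering of the trio. -/
noncomputable def numEquiv : Fin 3 ≃ ↥T₀ := Equiv.ofBijective octAt octAt_bijective

theorem exists_lift_perm {σ : Equiv.Perm (Fin 3)} {c : ℕ} (h : swapB σ c = true) :
    ∃ g : St, ((g : ↥M24) : Equiv.Perm GolayPt) = permOf c ∧ Good g 1 ∧
      onTrio g = numEquiv.permCongr σ := by
  simp only [swapB, Bool.and_eq_true, decide_eq_true_eq] at h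
  obtain ⟨⟨h1, h2⟩, h3⟩ := h
  have hok := permOK_of_isAut h1
  have hmove : ∀ k, permOf c • (octAt k : Finset GolayPt) = octAt (σ k) := fun k => by
    show permOf c • bset _ = bset _
    rw [← bset_mapMask hok, h2]
  have hst : (⟨permOf c, permOf_mem_M24 h1⟩ : ↥M24) ∈ St := by
    show permOf c • T₀ = T₀
    refine Finset.eq_of_subset_of_card_le (fun o ho => ?_) (Finset.card_smul_finset _ _).ge
    obtain ⟨u, hu, rfl⟩ := Finset.mem_smul_finset.1 ho
    obtain ⟨k, hk⟩ := octAt_bijective.2 ⟨u, hu⟩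
    have e : u = octAt k := (congrArg Subtype.val hk).symm
    rw [e, hmove]
    exact (octAt _).2
  refine ⟨⟨_, hst⟩, rfl, fun v => ?_, Equiv.ext fun o => Subtype.ext ?_⟩
  · show permOf c • lab v = _
    rw [Units.val_one, Matrix.one_mulVec, lab, ← toSet_actL hok, h3]
  · obtain ⟨k, rfl⟩ := numEquiv.surjective o
    rw [Equiv.permCongr_apply, Equiv.symm_apply_apply, onTrio_apply]
    exact hmove k

theorem perm_three : ∀ σ : Equiv.Perm (Fin 3),
    σ ∈ [1, Equiv.swap 0 1, Equiv.swap 1 2, Equiv.swap 0 1 * Equiv.swap 1 2,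
      Equiv.swap 1 2 * Equiv.swap 0 1, Equiv.swap 0 1 * Equiv.swap 1 2 * Equiv.swap 0 1] := by
  decide +kernel

theorem mem_range_perm (τ : Equiv.Perm ↥T₀) :
    ((1 : GL (Fin 3) (ZMod 2)), τ) ∈ pairHom.range := by
  have key : ∀ σ c, swapB σ c = true →
      ((1 : GL (Fin 3) (ZMod 2)), numEquiv.permCongr σ) ∈ pairHom.range := by
    intro σ c h
    obtain ⟨g, -, hg, e⟩ := exists_lift_perm h
    exact ⟨⟨g, 1, hg⟩, by rw [pairHom_eq hg, e]⟩
  have h1 := key _ _ lift_checks.2.2.1
  have h2 := key _ _ lift_checks.2.2.2.1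
  obtain ⟨σ, rfl⟩ := numEquiv.permCongr.surjective τ
  have hm : ∀ a b : Equiv.Perm (Fin 3), ((1 : GL (Fin 3) (ZMod 2)), numEquiv.permCongr a) ∈ pairHom.range →
      ((1 : GL (Fin 3) (ZMod 2)), numEquiv.permCongr b) ∈ pairHom.range →
      ((1 : GL (Fin 3) (ZMod 2)), numEquiv.permCongr (a * b)) ∈ pairHom.range := fun a b ha hb => by
    have := mul_mem ha hb
    have e : numEquiv.permCongr (a * b) = numEquiv.permCongr a * numEquiv.permCongr b :=
      map_mul numEquiv.permCongrHom a b
    rw [e]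
    rwa [Prod.mk_mul_mk, one_mul] at this
  have hσ := perm_three σ
  simp only [List.mem_cons, List.not_mem_nil, or_false] at hσ
  rcases hσ with rfl | rfl | rfl | rfl | rfl | rfl
  · convert one_mem pairHom.range using 1
    exact Prod.ext rfl (Equiv.ext fun o => by simp)
  · exact h1
  · exact h2
  · exact hm _ _ h1 h2
  · exact hm _ _ h2 h1
  · exact hm _ _ (hm _ _ h1 h2) h1

theorem mem_range_transvection (t : Matrix.TransvectionStruct (Fin 3) (ZMod 2)) :
    ∃ x ∈ pairHom.range, (x.1 : Matrix (Fin 3) (Fin 3) (ZMod 2)) = t.toMatrix ∧ x.2 = 1 := by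
  obtain ⟨i, j, hij, c⟩ := t
  have hc : c = 0 ∨ c = 1 := (by decide : ∀ z : ZMod 2, z = 0 ∨ z = 1) c
  rcases hc with rfl | rfl
  · exact ⟨1, one_mem _, by simp [Matrix.TransvectionStruct.toMatrix], rfl⟩
  obtain ⟨⟨i', j', code⟩, he, hi, hj⟩ := lift_checks.2.1 i j hij
  simp only at hi hj
  subst hi hj
  have h := List.all_eq_true.1 lift_checks.1 _ he
  simp only [transB, Bool.and_eq_true, decide_eq_true_eq, List.all_eq_true, beq_iff_eq] at h
  obtain ⟨⟨h1, h2⟩, h3⟩ := h
  have hok := permOK_of_isAut h1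
  have hfixT : ∀ o : ↥T₀, permOf code • (o : Finset GolayPt) = o := fun o => by
    obtain ⟨m, hm, e⟩ := mem_toSet.1 o.2
    rw [← e, ← bset_mapMask hok, h2 m hm]
  have hst : (⟨permOf code, permOf_mem_M24 h1⟩ : ↥M24) ∈ St := by
    show permOf code • T₀ = T₀
    refine Finset.eq_of_subset_of_card_le (fun o ho => ?_) (Finset.card_smul_finset _ _).ge
    obtain ⟨u, hu, rfl⟩ := Finset.mem_smul_finset.1 ho
    rw [hfixT ⟨u, hu⟩]
    exact hu
  let M : GL (Fin 3) (ZMod 2) :=
    ⟨Matrix.transvection i j 1, Matrix.transvection i j 1,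
      by rw [Matrix.transvection_mul_transvection_same _ _ hij, show (1 + 1 : ZMod 2) = 0 from rfl,
        Matrix.transvection_zero],
      by rw [Matrix.transvection_mul_transvection_same _ _ hij, show (1 + 1 : ZMod 2) = 0 from rfl,
        Matrix.transvection_zero]⟩
  have hgood : Good ⟨_, hst⟩ M := fun v => by
    show permOf code • lab v = lab ((Matrix.transvection i j 1).mulVec v)
    rw [lab, ← toSet_actL hok, h3, lab]
    congr 2
    funext k
    rw [Matrix.transvection, Matrix.add_mulVec, Matrix.one_mulVec, Pi.add_apply, transv,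
      Matrix.single_mulVec, Fin.ofNat_eq_cast, Fin.cast_val_eq_self]
    rcases eq_or_ne k i with rfl | hk
    · simp
    · simp [hk, Fin.val_ne_of_ne hk]
  refine ⟨_, ⟨⟨_, M, hgood⟩, rfl⟩, ?_, ?_⟩
  · rw [pairHom_eq hgood]; rfl
  · rw [pairHom_eq hgood]
    exact Equiv.ext fun o => Subtype.ext ((onTrio_apply _ o).trans (hfixT o))

theorem pairHom_surjective : Function.Surjective pairHom := by
  rw [← MonoidHom.range_eq_top, eq_top_iff]
  rintro ⟨M, τ⟩ -
  obtain ⟨L, L', D, hD⟩ :=
    Matrix.Pivot.exists_list_transvec_mul_diagonal_mul_list_transvec (M : Matrix (Fin 3) (Fin 3) (ZMod 2))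
  have hdet : (Matrix.diagonal D).det ≠ 0 := by
    intro h0
    have h := M.isUnit.map (Matrix.detMonoidHom (n := Fin 3) (R := ZMod 2))
    rw [Matrix.coe_detMonoidHom, hD, Matrix.det_mul, Matrix.det_mul, h0, mul_zero, zero_mul] at h
    exact not_isUnit_zero h
  have hone : Matrix.diagonal D = 1 := by
    rw [Matrix.det_diagonal, Finset.prod_ne_zero_iff] at hdet
    rw [← Matrix.diagonal_one]
    congr 1
    funext k
    exact (by decide : ∀ z : ZMod 2, z ≠ 0 → z = 1) _ (hdet k (Finset.mem_univ k))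
  let S : Submonoid (Matrix (Fin 3) (Fin 3) (ZMod 2)) :=
    { carrier := {A | ∃ x ∈ pairHom.range, (x.1 : Matrix (Fin 3) (Fin 3) (ZMod 2)) = A ∧ x.2 = 1}
      one_mem' := ⟨1, one_mem _, rfl, rfl⟩
      mul_mem' := by
        rintro A B ⟨x, hx, rfl, hx2⟩ ⟨y, hy, rfl, hy2⟩
        exact ⟨x * y, mul_mem hx hy, rfl, by rw [Prod.snd_mul, hx2, hy2, one_mul]⟩ }
  have hprod : ∀ l : List (Matrix.TransvectionStruct (Fin 3) (ZMod 2)),
      (l.map Matrix.TransvectionStruct.toMatrix).prod ∈ S := fun l =>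
    S.list_prod_mem (by
      intro A hA
      obtain ⟨t, -, rfl⟩ := List.mem_map.1 hA
      exact mem_range_transvection t)
  rw [hone, mul_one] at hD
  obtain ⟨x, hx, hx1, hx2⟩ := hD ▸ S.mul_mem (hprod L) (hprod L')
  have hxeq : x = (M, 1) := Prod.ext (Units.ext hx1) hx2
  have := mul_mem (hxeq ▸ hx) (mem_range_perm τ)
  rwa [Prod.mk_mul_mk, mul_one, one_mul] at this

theorem card_target : Nat.card (GL (Fin 3) (ZMod 2) × Equiv.Perm ↥T₀) = 1008 := by
  rw [Nat.card_prod, Matrix.card_GL_field, Nat.card_perm, Nat.card_eq_fintype_card (α := ↥T₀),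
    Fintype.card_coe, T₀_mem.1]
  simp [Fin.prod_univ_three, ZMod.card, Nat.factorial]

/-- The element of a trivially acting code. -/
theorem trivial_elt {c : ℕ} (hc : c ∈ trivialCodes) :
    ∃ g : linearPart, (((g : St) : ↥M24) : Equiv.Perm GolayPt) = permOf c ∧ pairHom g = 1 ∧ g * g = 1 := by
  have h := List.all_eq_true.1 lift_checks.2.2.2.2.1 c hc
  simp only [Bool.and_eq_true] at h
  obtain ⟨g, hg, hgood, hT⟩ := exists_lift_perm h.1.1
  refine ⟨⟨g, 1, hgood⟩, hg, ?_, Subtype.ext (Subtype.ext (Subtype.ext ?_))⟩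
  · rw [pairHom_eq hgood, hT]
    exact Prod.ext rfl (Equiv.ext fun o => by simp)
  · show ((g : ↥M24) : Equiv.Perm GolayPt) * (g : ↥M24) = 1
    have hok := permOK_of_isAut (by
      have := h.1.1; simp only [swapB, Bool.and_eq_true] at this; exact this.1.1 : isAut c = true)
    rw [hg, ← permOf_mul idCode_ok hok hok h.1.2, permOf_idCode]

theorem kernel_eq : Nat.card pairHom.ker = 64 ∧ (∀ x ∈ pairHom.ker, x * x = 1) ∧ linearPart = ⊤ := by
  classical
  have hex : ∀ c : {c // c ∈ trivialCodes}, ∃ g : pairHom.ker,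
      (((g.1 : St) : ↥M24) : Equiv.Perm GolayPt) = permOf c ∧ g * g = 1 := fun c => by
    obtain ⟨g, h1, h2, h3⟩ := trivial_elt c.2
    exact ⟨⟨g, h2⟩, h1, Subtype.ext h3⟩
  choose f hf using hex
  have hlt : ∀ c : {c // c ∈ trivialCodes}, c.1 < 2 ^ 120 ∧ permOK c.1 = true := fun c => by
    have h := List.all_eq_true.1 lift_checks.2.2.2.2.1 c c.2
    simp only [Bool.and_eq_true, decide_eq_true_eq, swapB] at h
    exact ⟨h.2, permOK_of_isAut h.1.1.1.1⟩
  have hinj : Function.Injective f := fun a b e => by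
    have h : permOf a.1 = permOf b.1 := by rw [← (hf a).1, ← (hf b).1, e]
    exact Subtype.ext (app_ext (hlt a).1 (hlt b).1 fun i hi => by
      have := congrArg (fun σ : Equiv.Perm GolayPt => idx (σ (pt i))) h
      simpa [idx_permOf (hlt a).2, idx_permOf (hlt b).2, idx_pt hi] using this)
  have hcard64 : Fintype.card {c // c ∈ trivialCodes} = 64 := by
    rw [Fintype.card_of_subtype trivialCodes.toFinset (fun c => List.mem_toFinset),
      List.toFinset_card_of_nodup lift_checks.2.2.2.2.2.1, lift_checks.2.2.2.2.2.2]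
  have hge : 64 ≤ Nat.card pairHom.ker := by
    have := Nat.card_le_card_of_injective f hinj
    rwa [Nat.card_eq_fintype_card, hcard64] at this
  have hmul := pairHom.ker.index_mul_card
  rw [Subgroup.index_ker, MonoidHom.range_eq_top.2 pairHom_surjective, Subgroup.card_top, card_target] at hmul
  have hle : Nat.card linearPart ≤ 64512 := card_St ▸ Subgroup.card_le_card_group linearPart
  have hk : Nat.card pairHom.ker = 64 := by omega
  refine ⟨hk, fun x hx => ?_, Subgroup.eq_top_of_card_eq _ (by rw [card_St]; omega)⟩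
  obtain ⟨c, hc⟩ := ((Nat.bijective_iff_injective_and_card f).2 ⟨hinj, by
    rw [hk, Nat.card_eq_fintype_card, hcard64]⟩).2 ⟨x, hx⟩
  exact congrArg Subtype.val (hc ▸ (hf c).2)

/-- The quotient map of the stabiliser. -/
noncomputable def stHom : St →* GL (Fin 3) (ZMod 2) × Equiv.Perm ↥T₀ :=
  pairHom.comp ((MonoidHom.id St).codRestrict linearPart fun g => kernel_eq.2.2 ▸ Subgroup.mem_top g)

theorem main (T : Finset (Finset GolayPt)) (hT : T ∈ trios) :
    (∀ e : Equiv.Perm ↥T, ∃ g ∈ MulAction.stabilizer M24 T, ∀ o : ↥T,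
      (g : Equiv.Perm GolayPt) • (o : Finset GolayPt) = ((e o : ↥T) : Finset GolayPt)) ∧
    ∃ (N : Subgroup ↥(MulAction.stabilizer M24 T)) (_ : N.Normal), Nat.card N = 64 ∧
      (∀ x ∈ N, x * x = 1) ∧
      Nonempty (↥(MulAction.stabilizer M24 T) ⧸ N ≃* GL (Fin 3) (ZMod 2) × Equiv.Perm (Fin 3)) := by
  obtain ⟨a, ha, rfl⟩ := trio_of_root hT
  let A : ↥M24 := ⟨a, ha⟩
  have hmove : A • T₀ = a • toSet rootTri := rfl
  have hconj : ∀ g : ↥(MulAction.stabilizer M24 (a • toSet rootTri)), A⁻¹ * g.1 * A ∈ St := fun g => by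
    show (A⁻¹ * g.1 * A) • T₀ = T₀
    rw [mul_smul, mul_smul, hmove, show g.1 • (a • toSet rootTri) = a • toSet rootTri from g.2,
      ← hmove, inv_smul_smul]
  let ψ : ↥(MulAction.stabilizer M24 (a • toSet rootTri)) →* St :=
    MonoidHom.mk' (fun g => ⟨_, hconj g⟩) fun g h => Subtype.ext (by simp [mul_assoc])
  have hψ : Function.Bijective ψ := by
    refine ⟨fun g h e => ?_, fun k => ?_⟩
    · exact Subtype.ext (mul_left_cancel (mul_right_cancel (congrArg Subtype.val e)))
    · refine ⟨⟨A * k.1 * A⁻¹, ?_⟩, Subtype.ext (by simp [ψ, mul_assoc])⟩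
      show (A * k.1 * A⁻¹) • (a • toSet rootTri) = a • toSet rootTri
      rw [← hmove, mul_smul, mul_smul, inv_smul_smul, show k.1 • T₀ = T₀ from k.2]
  have hsurj : Function.Surjective (stHom.comp ψ) := by
    intro x
    obtain ⟨y, hy⟩ := pairHom_surjective x
    obtain ⟨z, hz⟩ := hψ.2 y.1
    exact ⟨z, by rw [← hy]; exact congrArg pairHom (Subtype.ext hz)⟩
  refine ⟨fun e => ?_, (stHom.comp ψ).ker, inferInstance, ?_, fun x hx => ?_, ⟨?_⟩⟩
  · -- transport the permutation to the standard trio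
    let t : ↥T₀ ≃ ↥(a • toSet rootTri) :=
      { toFun := fun o => ⟨a • o.1, Finset.smul_mem_smul_finset o.2⟩
        invFun := fun o => ⟨a⁻¹ • o.1, by
          rw [Finset.inv_smul_mem_iff]; exact o.2⟩
        left_inv := fun o => Subtype.ext (inv_smul_smul a o.1)
        right_inv := fun o => Subtype.ext (smul_inv_smul a o.1) }
    obtain ⟨g, hg⟩ := hsurj (1, t.symm.permCongr e)
    refine ⟨g.1, g.2, fun o => ?_⟩
    obtain ⟨o', rfl⟩ := t.surjective o
    have h := congrArg (fun τ : Equiv.Perm ↥T₀ => ((τ o' : ↥T₀) : Finset GolayPt))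
      (congrArg Prod.snd hg)
    change ((onTrio (ψ g) o' : ↥T₀) : Finset GolayPt) = _ at h
    rw [onTrio_apply, Equiv.permCongr_apply] at h
    change (((A⁻¹ * g.1 * A : ↥M24) : Equiv.Perm GolayPt)) • (o' : Finset GolayPt) =
      a⁻¹ • ((e (t o') : ↥(a • toSet rootTri)) : Finset GolayPt) at h
    show (g.1 : Equiv.Perm GolayPt) • (a • (o' : Finset GolayPt)) = _
    simp only [Subgroup.coe_mul, Subgroup.coe_inv, mul_smul, smul_left_cancel_iff, A] at h
    exact h
  · have h := (stHom.comp ψ).ker.index_mul_card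
    rw [Subgroup.index_ker, MonoidHom.range_eq_top.2 hsurj, Subgroup.card_top, card_target,
      Nat.card_eq_of_bijective ψ hψ, card_St] at h
    omega
  · refine hψ.1 ?_
    rw [map_mul, map_one]
    have h := kernel_eq.2.1 ⟨ψ x, kernel_eq.2.2 ▸ Subgroup.mem_top _⟩ hx
    exact congrArg Subtype.val h
  · exact (QuotientGroup.quotientKerEquivOfSurjective _ hsurj).trans
      (MulEquiv.prodCongr (MulEquiv.refl _) numEquiv.symm.permCongrHom)

end Cfsg.Agent.TwoGroups.TrioStructure
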